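import Mathlib
import Cfsg.Agent.Lib.Helper95.BRA.Defs

/-!
# BRA (S4484) package [B4]: all conjugates of the eigenprojection commute
-/

set_option autoImplicit false

open scoped Matrix ComplexConjugate

namespace Cfsg.Agent.Lib.Helper93.BRA

open Cfsg Cfsg.Agent.Lib.Helper74.Jordan Cfsg.Agent.Lib.Helper95.BRA

universe u

/-- [B4] -/
theorem pkgB4 (hB1 : PkgB1) (hB2 : PkgB2) (hB3 : PkgB3) : PkgB4.{u} := by
  intro G _ _ n U hU x j₀ hS y₁ y₂
  classical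
  obtain ⟨N, hNdef⟩ : ∃ N, N = Nat.card G := ⟨_, rfl⟩
  rw [← hNdef] at hS ⊢
  have hN : N ≠ 0 := by rw [hNdef]; exact Nat.card_pos.ne'
  have hU' : ∀ g, U g * (U g)ᴴ = 1 := fun g => mul_eq_one_comm.1 (hU g)
  have hUinv : ∀ g, (U g)ᴴ = U g⁻¹ := by
    intro g
    calc (U g)ᴴ = (U g)ᴴ * (U g * U g⁻¹) := by
          rw [← map_mul, mul_inv_cancel, map_one, Matrix.mul_one]
      _ = ((U g)ᴴ * U g) * U g⁻¹ := by rw [Matrix.mul_assoc]
      _ = U g⁻¹ := by rw [hU g, Matrix.one_mul]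
  have hpowN : ∀ g, U g ^ N = 1 := by
    intro g
    rw [← map_pow, hNdef, pow_card_eq_one', map_one]
  have hconj : ∀ (c y : G) (j : ℕ),
      proj (U (y * c * y⁻¹)) N j = U y * proj (U c) N j * (U y)ᴴ := by
    intro c y j
    have h1 : U (y * c * y⁻¹) = U y * U c * (U y)ᴴ := by rw [map_mul, map_mul, hUinv]
    rw [h1]
    exact proj_conj (hU' y) (hU y) N j
  have hSh : ∀ y : G, Sharp (U (y * x * y⁻¹)) N j₀ := by
    intro y
    obtain ⟨h1, h2, h3⟩ := hS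
    have hz : ∀ j, proj (U (y * x * y⁻¹)) N j ≠ 0 → proj (U x) N j ≠ 0 := by
      intro j hj h0
      apply hj
      rw [hconj, h0, Matrix.mul_zero, Matrix.zero_mul]
    refine ⟨h1, ?_, fun j hj hne => h3 j hj (hz j hne)⟩
    intro h0
    apply h2
    have h4 : proj (U x) N j₀ = (U y)ᴴ * (U y * proj (U x) N j₀ * (U y)ᴴ) * U y := by
      calc proj (U x) N j₀ = ((U y)ᴴ * U y) * proj (U x) N j₀ * ((U y)ᴴ * U y) := by
            rw [hU y, Matrix.one_mul, Matrix.mul_one]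
        _ = _ := by simp only [Matrix.mul_assoc]
    rw [h4, ← hconj, h0, Matrix.mul_zero, Matrix.zero_mul]
  have main : ∀ y₁ y₂ : G, proj (U (y₁ * x * y₁⁻¹)) N j₀ * proj (U (y₂ * x * y₂⁻¹)) N j₀ =
      proj (U (y₂ * x * y₂⁻¹)) N j₀ * proj (U (y₁ * x * y₁⁻¹)) N j₀ := by
    obtain ⟨Pj, hPj⟩ : ∃ Pj : G → Matrix (Fin n) (Fin n) ℂ,
        ∀ y, Pj y = proj (U (y * x * y⁻¹)) N j₀ := ⟨_, fun _ => rfl⟩
    suffices hsuff : ∀ y₁ y₂ : G, Pj y₁ * Pj y₂ = Pj y₂ * Pj y₁ by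
      intro y₁ y₂
      rw [← hPj y₁, ← hPj y₂]
      exact hsuff y₁ y₂
    by_contra hcon
    push Not at hcon
    obtain ⟨S, hSdef⟩ : ∃ S : Set (G × G), S = {t | Pj t.1 * Pj t.2 ≠ Pj t.2 * Pj t.1} := ⟨_, rfl⟩
    have hSne : S.Nonempty := by
      obtain ⟨a, b, hab⟩ := hcon
      exact ⟨(a, b), by rw [hSdef]; exact hab⟩
    obtain ⟨⟨a, b⟩, hab, hmax⟩ :=
      Set.exists_max_image S (fun t => (Pj t.1 * Pj t.2).trace.re) (Set.toFinite S) hSne
    rw [hSdef] at hab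
    replace hab : Pj a * Pj b ≠ Pj b * Pj a := hab
    have hA : (U (a * x * a⁻¹))ᴴ * U (a * x * a⁻¹) = 1 := hU _
    have hPh : ∀ y, (Pj y)ᴴ = Pj y := by
      intro y
      rw [hPj]
      exact proj_herm hN (hpowN _) (hU _) j₀
    have hPi : ∀ y, Pj y * Pj y = Pj y := by
      intro y
      rw [hPj]
      exact proj_idem hN (hpowN _) (hSh y).1
    have hb1 := hB1 n (U (a * x * a⁻¹)) N j₀ hN (hpowN _) hA (hSh a)
    rw [← hPj a] at hb1
    have hb3 := hB3 n (U (a * x * a⁻¹)) (Pj a) (Pj b) hA (hPh a) (hPi a) (hPh b) (hPi b)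
      (fun w => (hb1 w).1) (fun w => (hb1 w).2.1)
    have hc : U (a * x * a⁻¹) * Pj b * (U (a * x * a⁻¹))ᴴ = Pj (a * x * a⁻¹ * b) := by
      have h5 : (a * x * a⁻¹ * b) * x * (a * x * a⁻¹ * b)⁻¹ =
          (a * x * a⁻¹) * (b * x * b⁻¹) * (a * x * a⁻¹)⁻¹ := by group
      rw [hPj b, hPj (a * x * a⁻¹ * b), h5, hconj (b * x * b⁻¹) (a * x * a⁻¹)]
    rw [hc] at hb3
    obtain ⟨hle, heq⟩ := hb3
    have hlt : (Pj a * Pj b).trace.re < (Pj b * Pj (a * x * a⁻¹ * b)).trace.re := by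
      refine lt_of_le_of_ne hle (fun hE => hab ?_)
      have h1 := heq hE
      have h2 : Pj b * Pj a = Pj b := by
        have h3 := congrArg Matrix.conjTranspose h1
        rwa [Matrix.conjTranspose_mul, hPh, hPh] at h3
      rw [h1, h2]
    have hcomm : Pj b * Pj (a * x * a⁻¹ * b) = Pj (a * x * a⁻¹ * b) * Pj b := by
      by_contra hne
      have h6 := hmax (b, a * x * a⁻¹ * b) (by rw [hSdef]; exact hne)
      exact absurd hlt (not_lt.mpr h6)
    rw [← hc] at hcomm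
    have hb2 := hB2 n (U (a * x * a⁻¹)) (Pj b) hA (hPh b) (hPi b)
      (fun w hw => (hb1 w).2.2 hw) hcomm
    apply hab
    have hcm : Commute (U (a * x * a⁻¹)) (Pj b) := hb2
    have h7 : Commute (Pj a) (Pj b) := by
      rw [hPj a]
      unfold proj
      exact Commute.smul_left
        (Commute.sum_left _ _ _ fun k _ => ((hcm.smul_left _).pow_left k)) _
    exact h7
  rw [← hconj, ← hconj]
  exact main y₁ y₂

end Cfsg.Agent.Lib.Helper93.BRA
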